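import Cfsg.Agent.H2.Simple

/-!
The form-preserving subgroup of the general linear group is the symplectic group.
-/

set_option autoImplicit false

namespace Cfsg.Agent.H2

open Matrix

/-- `Matrix.symplecticGroup` is isomorphic to `Cfsg.spGL`. -/
def spEquivSpGL (m : ℕ) (F : Type*) [Field F] :
    Matrix.symplecticGroup (Fin m) F ≃* Cfsg.spGL m F where
  toFun g := ⟨((Matrix.symplecticGroup (Fin m) F).subtype).toHomUnits g, fun u v => by simp⟩
  invFun g := ⟨(g.1 : Matrix (Fin m ⊕ Fin m) (Fin m ⊕ Fin m) F), mem_symplecticGroup_iff.mpr g.2⟩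
  left_inv g := rfl
  right_inv g := Subtype.ext (Units.ext rfl)
  map_mul' g h := Subtype.ext (Units.ext rfl)

end Cfsg.Agent.H2
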