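import Cfsg.Agent.H2.Stab

/-!
The stabiliser of the standard totally isotropic flag.
-/

set_option autoImplicit false

namespace Cfsg.Agent.H2

open Matrix

variable {m : ℕ} {F : Type*} [Field F]

/-- The subspace spanned by `e_0, …, e_k`. -/
def flagSpace (m : ℕ) (F : Type*) [Field F] (k : Fin m) : Submodule F (Fin m ⊕ Fin m → F) where
  carrier := {v | (∀ i : Fin m, (k : ℕ) < (i : ℕ) → v (Sum.inl i) = 0) ∧ ∀ i, v (Sum.inr i) = 0}
  add_mem' hu hv := ⟨fun i hi => by simp [hu.1 i hi, hv.1 i hi], fun i => by simp [hu.2 i, hv.2 i]⟩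
  zero_mem' := ⟨fun i _ => rfl, fun i => rfl⟩
  smul_mem' c u hu := ⟨fun i hi => by simp [hu.1 i hi], fun i => by simp [hu.2 i]⟩

/-- Images of the basis vectors under the flag stabiliser. -/
abbrev FlagEntry (m : ℕ) (F : Type*) [Field F] (j : Fin m) :=
  {v : Fin m ⊕ Fin m → F // v ∈ flagSpace m F j ∧ v (Sum.inl j) ≠ 0}

theorem linearIndependent_flagEntry (y : ∀ j, FlagEntry m F j) :
    LinearIndependent F fun j => (y j).1 := by
  classical
  rw [Fintype.linearIndependent_iff]
  intro c hc
  by_contra h
  push Not at h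
  obtain ⟨i, hi⟩ := h
  set S := Finset.univ.filter (fun j => c j ≠ 0) with hS
  have hne : S.Nonempty := ⟨i, by simp [hS, hi]⟩
  set j := S.max' hne
  have hj : c j ≠ 0 := (Finset.mem_filter.mp (S.max'_mem hne)).2
  have h0 := congrFun hc (Sum.inl j)
  rw [Finset.sum_apply, Finset.sum_eq_single j] at h0
  · exact (mul_ne_zero hj (y j).2.2) h0
  · intro l _ hl
    by_cases hcl : c l = 0
    · simp [hcl]
    · have : l < j := lt_of_le_of_ne (S.le_max' l (by simp [hS, hcl])) hl
      simp [(y l).2.1.1 j this]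
  · simp

/-- The number of possible images of one basis vector. -/
theorem card_flagEntry [Finite F] (j : Fin m) :
    Nat.card (FlagEntry m F j) = (Nat.card F - 1) * Nat.card F ^ (j : ℕ) := by
  classical
  cases nonempty_fintype F
  let e : FlagEntry m F j ≃ {a : F // a ≠ 0} × (Fin (j : ℕ) → F) :=
    { toFun := fun v => (⟨v.1 (Sum.inl j), v.2.2⟩, fun i => v.1 (Sum.inl (Fin.castLE j.2.le i)))
      invFun := fun p => ⟨Sum.elim (fun i => if h : (i : ℕ) < (j : ℕ) then p.2 ⟨i, h⟩ else
          if i = j then p.1.1 else 0) 0, by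
        refine ⟨⟨fun i hi => ?_, fun i => rfl⟩, ?_⟩
        · simp only [Sum.elim_inl]
          rw [dif_neg (by omega), if_neg (Fin.ne_of_gt hi)]
        · simp only [Sum.elim_inl]
          rw [dif_neg (lt_irrefl _), if_pos trivial]
          exact p.1.2⟩
      left_inv := fun v => by
        refine Subtype.ext (funext fun x => ?_)
        rcases x with i | i
        · rcases lt_trichotomy (i : ℕ) (j : ℕ) with h | h | h
          · simp only [Sum.elim_inl]
            rw [dif_pos h]
            rfl
          · obtain rfl := Fin.ext h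
            simp only [Sum.elim_inl]
            rw [dif_neg (lt_irrefl _), if_pos trivial]
          · simp only [Sum.elim_inl]
            rw [dif_neg (by omega), if_neg (Fin.ne_of_gt h), v.2.1.1 i h]
        · simp [v.2.1.2 i]
      right_inv := fun p => by
        refine Prod.ext (Subtype.ext ?_) (funext fun i => ?_)
        · simp only [Sum.elim_inl]
          rw [dif_neg (lt_irrefl _), if_pos trivial]
        · simp only [Sum.elim_inl]
          rw [dif_pos (by exact i.2)]
          rfl }
  rw [Nat.card_congr e, Nat.card_prod, Nat.card_fun, Nat.card_fin]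
  simp [Nat.card_eq_fintype_card, Fintype.card_subtype_compl]

/-- Order of the stabiliser of the standard flag. -/
theorem card_stabilizing_flag [Finite F] (m : ℕ) :
    Nat.card ↥(⨅ k : Fin m, Cfsg.stabilizing (Cfsg.spToMat m F)
      (flagSpace m F k : Set (Fin m ⊕ Fin m → F))) =
      Nat.card F ^ (m ^ 2) * (Nat.card F - 1) ^ m := by
  classical
  set H := ⨅ k : Fin m, Cfsg.stabilizing (Cfsg.spToMat m F)
      (flagSpace m F k : Set (Fin m ⊕ Fin m → F)) with hH
  let e0 : ∀ j, FlagEntry m F j := fun j => ⟨Pi.single (Sum.inl j) 1,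
    ⟨fun i hi => by simp [Fin.ne_of_gt hi], fun i => by simp⟩, by simp⟩
  have hiso : ∀ (y : ∀ j, FlagEntry m F j) i j, Cfsg.sympForm m F (y i).1 (y j).1 = 0 := by
    intro y i j
    rw [sympForm_apply]
    exact Finset.sum_eq_zero fun l _ => by simp [(y i).2.1.2, (y j).2.1.2]
  let x : IsotropicTuple m m F :=
    ⟨fun j => (e0 j).1, linearIndependent_flagEntry e0, hiso e0⟩
  have hgH : ∀ g : Matrix.symplecticGroup (Fin m) F,
      (∀ j, (g : Matrix (Fin m ⊕ Fin m) (Fin m ⊕ Fin m) F) *ᵥ x.1 j ∈ flagSpace m F j) → g ∈ H := by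
    intro g hg
    rw [hH, Subgroup.mem_iInf]
    intro k
    refine mem_stabilizing_of_map_le g _ fun w hw => ?_
    have hw' : w = ∑ i : Fin m, w (Sum.inl i) • x.1 i := by
      funext s
      rcases s with l | l
      · simp [x, e0, Finset.sum_apply, Pi.single_apply]
      · simp [x, e0, Finset.sum_apply, hw.2 l]
    rw [hw', Matrix.mulVec_sum]
    refine Submodule.sum_mem _ fun i _ => ?_
    rw [Matrix.mulVec_smul]
    rcases le_or_gt (i : ℕ) (k : ℕ) with h | h
    · exact Submodule.smul_mem _ _ ⟨fun l hl => (hg i).1 l (lt_of_le_of_lt h hl), (hg i).2⟩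
    · simp [hw.1 i h]
  have hle : MulAction.stabilizer _ x.1 ≤ H := fun g hg => hgH g fun j => by
    have : g • x.1 j = x.1 j := congrFun hg j
    rw [← smul_eq_mulVec_sp, this]
    exact (e0 j).2.1
  rw [card_eq_orbit_mul_stabilizer_of_le H x.1 hle, card_stabilizer_isotropic le_rfl x]
  have e : MulAction.orbit H x.1 ≃ ∀ j, FlagEntry m F j :=
    { toFun := fun y j => ⟨y.1 j, by
        obtain ⟨g, hg⟩ := y.2
        have hgy : (g.1 : Matrix (Fin m ⊕ Fin m) (Fin m ⊕ Fin m) F) *ᵥ x.1 j = y.1 j := congrFun hg j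
        have hmem : ∀ k, (g.1 : Matrix (Fin m ⊕ Fin m) (Fin m ⊕ Fin m) F) *ᵥ x.1 j ∈ flagSpace m F k ↔
            x.1 j ∈ flagSpace m F k := fun k => ((Subgroup.mem_iInf.mp g.2 k) _).symm
        rw [← hgy]
        refine ⟨(hmem j).mpr (e0 j).2.1, fun h0 => ?_⟩
        have hy := ((hmem j).mpr (e0 j).2.1)
        by_cases hj : (j : ℕ) = 0
        · apply (e0 j).2.2
          have hz : (g.1 : Matrix (Fin m ⊕ Fin m) (Fin m ⊕ Fin m) F) *ᵥ x.1 j = 0 := by
            funext s
            rcases s with l | l
            · rcases Nat.eq_zero_or_pos (l : ℕ) with hl | hl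
              · rw [show l = j from Fin.ext (by omega)]; exact h0
              · exact hy.1 l (by omega)
            · exact hy.2 l
          have : x.1 j = 0 := by
            have h3 := congrArg (fun w => ((g.1⁻¹ : Matrix.symplecticGroup (Fin m) F)) • w) hz
            simpa [← smul_eq_mulVec_sp, inv_smul_smul] using h3
          exact congrFun this _
        · have hk : (g.1 : Matrix (Fin m ⊕ Fin m) (Fin m ⊕ Fin m) F) *ᵥ x.1 j ∈
              flagSpace m F ⟨(j : ℕ) - 1, by omega⟩ := by
            refine ⟨fun l hl => ?_, hy.2⟩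
            simp only at hl
            rcases eq_or_lt_of_le (show (j : ℕ) ≤ l by omega) with h | h
            · rw [show l = j from Fin.ext h.symm]; exact h0
            · exact hy.1 l h
          exact (e0 j).2.2 (((hmem _).mp hk).1 j (by simp only; omega))⟩
      invFun := fun y => ⟨fun j => (y j).1, by
        obtain ⟨g, hg⟩ := (mem_orbit_tuple_iff x.1 (fun j => (y j).1) x.2.1).mpr
          ⟨linearIndependent_flagEntry y, fun i j => by rw [x.2.2, hiso y]⟩
        exact ⟨⟨g, hgH g fun j => by
          have h2 : g • x.1 j = (y j).1 := congrFun hg j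
          rw [← smul_eq_mulVec_sp, h2]
          exact (y j).2.1⟩, hg⟩⟩
      left_inv := fun y => rfl
      right_inv := fun y => rfl }
  rw [Nat.card_congr e, Nat.card_pi]
  simp only [card_flagEntry, Finset.prod_mul_distrib, Finset.prod_const, Finset.card_univ,
    Fintype.card_fin, Finset.prod_pow_eq_pow_sum, Nat.sub_self, Finset.range_zero, Finset.prod_empty,
    mul_zero, add_zero, zero_pow two_ne_zero, pow_zero, one_mul]
  rw [mul_assoc, ← pow_add, mul_comm]
  congr 2
  rw [Fin.sum_univ_eq_sum_range (fun i => i)]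
  have h1 := Finset.sum_range_id_mul_two m
  have h2 : m * (m + 1) / 2 * 2 = m * (m + 1) := Nat.div_mul_cancel (Nat.even_mul_succ_self m).two_dvd
  cases m with
  | zero => simp
  | succ n =>
    simp only [Nat.add_sub_cancel] at h1
    nlinarith

end Cfsg.Agent.H2
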