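import Cfsg.Agent.H5.OmegaForms

/-!
Pairwise non-conjugate involutions of POmega of odd dimension in odd characteristic.
-/

set_option autoImplicit false

namespace Cfsg.Agent.H2

open QuadraticMap Cfsg.Agent.H5

variable {F V : Type*} [Field F] [AddCommGroup V] [Module F V] [FiniteDimensional F V]
  {Q : QuadraticForm F V}

/-- The space negated by an isometry is the residual space of an involution. -/
theorem mem_resid_iff_neg (h2 : (2 : F) ≠ 0) {g : orth Q} (hg : g * g = 1) {x : V} :
    x ∈ resid g ↔ (g : V ≃ₗ[F] V) x = -x := by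
  have hgg : ∀ y, (g : V ≃ₗ[F] V) ((g : V ≃ₗ[F] V) y) = y := fun y => by
    rw [← orth_mul_apply, hg]; rfl
  refine ⟨?_, fun h => ⟨-((2 : F)⁻¹ • x), ?_⟩⟩
  · rintro ⟨y, rfl⟩
    rw [dLin_apply, map_sub, hgg, neg_sub]
  · rw [dLin_apply, map_neg, map_smul, h, smul_neg, neg_neg, sub_neg_eq_add, ← smul_add,
      ← two_smul F x, smul_smul, inv_mul_cancel₀ h2, one_smul]

/-- A product of reflections in pairwise orthogonal anisotropic vectors is an involution of
residual dimension the number of vectors. -/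
theorem refl_prod_orthogonal (hQ : (polarBilin Q).Nondegenerate) :
    ∀ vs : List V, (∀ v ∈ vs, Q v ≠ 0) → vs.Pairwise (fun v w => polar Q v w = 0) →
      (2 : F) ≠ 0 → let g := (vs.map (refl Q)).prod
      g * g = 1 ∧ rk g = vs.length ∧ ∀ x, (∀ v ∈ vs, polar Q v x = 0) → (g : V ≃ₗ[F] V) x = x
  | [], _, _, _ => by simp [rk_one]
  | v :: vs, hne, hp, h2 => by
    rw [List.pairwise_cons] at hp
    obtain ⟨hsq, hrk, hfix⟩ := refl_prod_orthogonal hQ vs
      (fun w hw => hne w (List.mem_cons_of_mem _ hw)) hp.2 h2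
    set g := (vs.map (refl Q)).prod with hg
    have hv : Q v ≠ 0 := hne v List.mem_cons_self
    have hgv : (g : V ≃ₗ[F] V) v = v := hfix v fun w hw => by
      rw [polar_comm]; exact hp.1 w hw
    have hcomm : g * refl Q v = refl Q v * g := by
      rw [← mul_inv_eq_iff_eq_mul, refl_conj, hgv]
    have hmem : v ∉ resid g := by
      intro h
      rw [mem_resid_iff_neg h2 hsq, hgv] at h
      have h3 : (2 : F) • v = 0 := by rw [two_smul]; nth_rewrite 1 [h]; exact neg_add_cancel v
      have h4 := (smul_eq_zero.mp h3).resolve_left h2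
      exact hv (by rw [h4, QuadraticMap.map_zero])
    show (((v :: vs).map (refl Q)).prod) * _ = 1 ∧ rk _ = _ ∧ _
    rw [List.map_cons, List.prod_cons, ← hg]
    refine ⟨?_, ?_, fun x hx => ?_⟩
    · calc refl Q v * g * (refl Q v * g) = refl Q v * (g * refl Q v) * g := by group
        _ = (refl Q v * refl Q v) * (g * g) := by rw [hcomm]; group
        _ = 1 := by rw [refl_mul_self, hsq, mul_one]
    · rw [rk_refl_mul_of_not_mem hQ hv hmem, hrk, List.length_cons]
    · rw [orth_mul_apply, hfix x fun w hw => hx w (List.mem_cons_of_mem _ hw)]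
      exact refl_apply_of_ortho (hx v List.mem_cons_self)

/-- Conjugation moves fixed spaces. -/
theorem finrank_fixer_conj (g h : orth Q) :
    Module.finrank F (fixer (h * g * h⁻¹)) = Module.finrank F (fixer g) := by
  have : fixer (h * g * h⁻¹) = (fixer g).map ((h : V ≃ₗ[F] V) : V →ₗ[F] V) := by
    ext x
    rw [mem_fixer, orth_mul_apply, orth_mul_apply]
    constructor
    · intro hx
      refine ⟨((h⁻¹ : orth Q) : V ≃ₗ[F] V) x, ?_, orth_apply_inv_apply h x⟩
      rw [SetLike.mem_coe, mem_fixer]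
      apply (h : V ≃ₗ[F] V).injective
      rw [hx, orth_apply_inv_apply]
    · rintro ⟨y, hy, rfl⟩
      rw [SetLike.mem_coe, mem_fixer] at hy
      rw [LinearEquiv.coe_coe, orth_inv_apply_apply, hy]
  rw [this]
  exact (h : V ≃ₗ[F] V).finrank_map_eq _

variable [Finite F]

/-- In odd dimension `2m+1`, an orthogonal family with at most one norm change gives `m` pairwise
non-conjugate involutions of POmega. -/
theorem exists_involutions (hQ : (polarBilin Q).Nondegenerate) (h2 : (2 : F) ≠ 0) {m : ℕ}
    (hm : 2 ≤ m) (hdim : Module.finrank F V = 2 * m + 1) (L : List V) (hlen : 2 * m ≤ L.length)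
    (hne : ∀ v ∈ L, Q v ≠ 0) (horth : L.Pairwise (fun v w => polar Q v w = 0))
    (hsq : ∀ r ≤ m, IsSquare ((L.take (2 * r)).map fun v => Q v).prod) :
    ∃ y : Fin m → commutator (orth Q) ⧸ Subgroup.center (commutator (orth Q)),
      (∀ i, y i * y i = 1 ∧ y i ≠ 1) ∧ ∀ i j, IsConj (y i) (y j) → i = j := by
  have : Finite V := Module.finite_of_finite F
  have hstd : Nat.card F ≠ 2 ∨ Module.finrank F V ≠ 4 := Or.inr (by omega)
  have hn : 4 ≤ Module.finrank F V := by omega
  let vs : Fin m → List V := fun i => L.take (2 * ((i : ℕ) + 1))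
  have hlenvs : ∀ i, (vs i).length = 2 * ((i : ℕ) + 1) := fun i => by
    simp only [vs, List.length_take]
    omega
  have hne' : ∀ i, ∀ v ∈ vs i, Q v ≠ 0 := fun i v hv => hne v (List.mem_of_mem_take hv)
  have hprod := fun i => refl_prod_orthogonal hQ (vs i) (hne' i) (horth.sublist (List.take_sublist _ _)) h2
  let g : Fin m → commutator (orth Q) := fun i => ⟨((vs i).map (refl Q)).prod,
    (list_prod_mem_commutator_iff hQ hstd (hne' i)).mpr
      ⟨by rw [hlenvs]; exact even_two_mul _, hsq _ i.2⟩⟩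
  have hg1 : ∀ i, (g i : orth Q) * (g i : orth Q) = 1 := fun i => (hprod i).1
  have hrk : ∀ i, rk (g i : orth Q) = 2 * ((i : ℕ) + 1) := fun i => (hprod i).2.1.trans (hlenvs i)
  have hfix : ∀ i, Module.finrank F (fixer (g i : orth Q)) + 2 * ((i : ℕ) + 1) = 2 * m + 1 := fun i => by
    have := rk_add_finrank_fixer (g i : orth Q)
    rw [hrk] at this
    omega
  have hnc : ∀ i, g i ∉ Subgroup.center (commutator (orth Q)) := by
    intro i hc
    obtain ⟨t, ht⟩ := (mem_center_iff hQ hn hstd).mp hc
    obtain ⟨x, hxm, hx0⟩ : ∃ x ∈ resid (g i : orth Q), x ≠ 0 := by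
      refine Submodule.exists_mem_ne_zero_of_ne_bot fun h => ?_
      have h3 := hrk i
      rw [rk, h] at h3
      simp at h3
    obtain ⟨z, hzm, hz0⟩ : ∃ z ∈ fixer (g i : orth Q), z ≠ 0 := by
      refine Submodule.exists_mem_ne_zero_of_ne_bot fun h => ?_
      have h3 := hfix i
      rw [h] at h3
      simp at h3
      omega
    rw [mem_resid_iff_neg h2 (hg1 i), ht, ← neg_one_smul F x] at hxm
    rw [mem_fixer, ht] at hzm
    have h3 := smul_left_injective F hx0 hxm
    have h4 : t = 1 := smul_left_injective F hz0 (hzm.trans (one_smul F z).symm)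
    rw [h4] at h3
    exact h2 (by linear_combination h3)
  refine ⟨fun i => QuotientGroup.mk' _ (g i), fun i => ⟨?_, ?_⟩, fun i j hij => ?_⟩
  · rw [← map_mul, show g i * g i = 1 from Subtype.ext (hg1 i), map_one]
  · show QuotientGroup.mk' _ (g i) ≠ 1
    rw [Ne, QuotientGroup.mk'_apply, QuotientGroup.eq_one_iff]
    exact hnc i
  · obtain ⟨c, hc⟩ := isConj_iff.mp hij
    obtain ⟨h, rfl⟩ := QuotientGroup.mk'_surjective _ c
    simp only [QuotientGroup.mk'_apply] at hc
    rw [← QuotientGroup.mk_inv, ← QuotientGroup.mk_mul, ← QuotientGroup.mk_mul,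
      QuotientGroup.eq] at hc
    set a : orth Q := (h : orth Q) * (g i : orth Q) * (h : orth Q)⁻¹ with ha
    obtain ⟨t, ht⟩ := (mem_center_iff hQ hn hstd).mp hc
    have hb : ∀ x, (g j : orth Q).1 x = t • (a.1 x) := by
      intro x
      have h5 : (((h * g i * h⁻¹)⁻¹ * g j : commutator (orth Q)) : orth Q) = a⁻¹ * (g j : orth Q) := rfl
      have h6 := ht x
      rw [h5, orth_mul_apply] at h6
      have h7 := congrArg (fun y => (a : V ≃ₗ[F] V) y) h6
      simp only [map_smul] at h7
      rwa [orth_apply_inv_apply] at h7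
    have ha1 : a * a = 1 := by
      rw [ha]
      calc _ = (h : orth Q) * ((g i : orth Q) * (g i : orth Q)) * (h : orth Q)⁻¹ := by group
        _ = 1 := by rw [hg1, mul_one, mul_inv_cancel]
    have hfa := finrank_fixer_conj (g i : orth Q) (h : orth Q)
    rw [← ha] at hfa
    obtain ⟨x₀, hx₀⟩ : ∃ x : V, x ≠ 0 := by
      have : Nontrivial V := Module.nontrivial_of_finrank_pos (R := F) (by omega)
      exact exists_ne 0
    have htt : t * t = 1 := by
      have h8 : (g j : orth Q).1 ((g j : orth Q).1 x₀) = x₀ := by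
        rw [← orth_mul_apply, hg1]; rfl
      rw [hb, hb, map_smul, ← orth_mul_apply, ha1, smul_smul] at h8
      exact smul_left_injective F hx₀ (h8.trans (one_smul F x₀).symm)
    have hi := hfix i
    have hj := hfix j
    rcases mul_self_eq_one_iff.mp htt with rfl | rfl
    · have : fixer (g j : orth Q) = fixer a := by
        ext x; rw [mem_fixer, mem_fixer, hb, one_smul]
      rw [this, hfa] at hj
      exact Fin.ext (by omega)
    · have : fixer (g j : orth Q) = resid a := by
        ext x
        rw [mem_fixer, mem_resid_iff_neg h2 ha1, hb, neg_one_smul, neg_eq_iff_eq_neg]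
      rw [this] at hj
      have h9 := rk_add_finrank_fixer a
      rw [rk, hfa] at h9
      omega

/-- The standard odd-dimensional form has a suitable list. -/
theorem qOdd_list (m : ℕ) (h2 : (2 : F) ≠ 0) :
    ∃ L : List (Unit ⊕ (Fin m ⊕ Fin m) → F), 2 * m ≤ L.length ∧
      (∀ v ∈ L, qOdd m F v ≠ 0) ∧ L.Pairwise (fun v w => polar (qOdd m F) v w = 0) ∧
      ∀ r ≤ m, IsSquare ((L.take (2 * r)).map fun v => qOdd m F v).prod := by
  classical
  let e0 : Unit ⊕ (Fin m ⊕ Fin m) → F := Pi.single (.inl ()) 1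
  let p : Fin m → Unit ⊕ (Fin m ⊕ Fin m) → F := fun i =>
    Pi.single (.inr (.inl i)) 1 + Pi.single (.inr (.inr i)) 1
  let n : Fin m → Unit ⊕ (Fin m ⊕ Fin m) → F := fun i =>
    Pi.single (.inr (.inl i)) 1 - Pi.single (.inr (.inr i)) 1
  have hQ0 : qOdd m F e0 = 1 := by
    rw [coe_qOdd]; simp [Cfsg.quadFormOdd, e0]
  have hQp : ∀ i, qOdd m F (p i) = 1 := fun i => by
    rw [coe_qOdd]; simp [Cfsg.quadFormOdd, p, Pi.single_apply, add_mul, mul_add]
  have hQn : ∀ i, qOdd m F (n i) = -1 := fun i => by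
    rw [coe_qOdd]; simp [Cfsg.quadFormOdd, n, Pi.single_apply, sub_mul, mul_sub]
  have h0p : ∀ i, polar (qOdd m F) e0 (p i) = 0 := fun i => by simp [polar_qOdd, e0, p]
  have h0n : ∀ i, polar (qOdd m F) e0 (n i) = 0 := fun i => by simp [polar_qOdd, e0, n]
  have hpp : ∀ i j, i ≠ j → polar (qOdd m F) (p i) (p j) = 0 := fun i j h => by
    simp [polar_qOdd, p, Pi.single_apply, h, Ne.symm h]
  have hnn : ∀ i j, i ≠ j → polar (qOdd m F) (n i) (n j) = 0 := fun i j h => by
    simp [polar_qOdd, n, Pi.single_apply, h, Ne.symm h]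
  have hpn : ∀ i j, polar (qOdd m F) (p i) (n j) = 0 := fun i j => by
    by_cases h : i = j
    · subst h; rw [polar_qOdd]; simp [p, n, Pi.single_apply]
    · simp [polar_qOdd, p, n, Pi.single_apply, h, Ne.symm h]
  set P := (List.finRange m).map p with hP
  set N := (List.finRange m).map n with hN
  have hPne : ∀ v ∈ P, qOdd m F v = 1 := fun v hv => by
    obtain ⟨i, -, rfl⟩ := List.mem_map.mp hv; exact hQp i
  have hNne : ∀ v ∈ N, qOdd m F v = -1 := fun v hv => by
    obtain ⟨i, -, rfl⟩ := List.mem_map.mp hv; exact hQn i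
  have hPpw : P.Pairwise (fun v w => polar (qOdd m F) v w = 0) :=
    List.pairwise_map.mpr ((List.nodup_finRange m).imp fun h => hpp _ _ h)
  have hNpw : N.Pairwise (fun v w => polar (qOdd m F) v w = 0) :=
    List.pairwise_map.mpr ((List.nodup_finRange m).imp fun h => hnn _ _ h)
  have hPN : ∀ v ∈ P, ∀ w ∈ N, polar (qOdd m F) v w = 0 := fun v hv w hw => by
    obtain ⟨i, -, rfl⟩ := List.mem_map.mp hv
    obtain ⟨j, -, rfl⟩ := List.mem_map.mp hw
    exact hpn i j
  have hmem : ∀ v ∈ e0 :: (P ++ N), qOdd m F v ≠ 0 := by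
    intro v hv
    rcases List.mem_cons.mp hv with rfl | hv
    · rw [hQ0]; exact one_ne_zero
    rcases List.mem_append.mp hv with hv | hv
    · rw [hPne v hv]; exact one_ne_zero
    · rw [hNne v hv]; exact neg_ne_zero.mpr one_ne_zero
  have hpw : (e0 :: (P ++ N)).Pairwise (fun v w => polar (qOdd m F) v w = 0) := by
    refine List.pairwise_cons.mpr ⟨fun v hv => ?_, List.pairwise_append.mpr ⟨hPpw, hNpw, hPN⟩⟩
    rcases List.mem_append.mp hv with hv | hv
    · obtain ⟨i, -, rfl⟩ := List.mem_map.mp hv; exact h0p i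
    · obtain ⟨i, -, rfl⟩ := List.mem_map.mp hv; exact h0n i
  have hPlen : P.length = m := by simp [hP]
  have hNlen : N.length = m := by simp [hN]
  -- the squares of the values on a prefix of `P'` and an even prefix of `N` give a square
  have key : ∀ (P' : List (Unit ⊕ (Fin m ⊕ Fin m) → F)), (∀ v ∈ P', qOdd m F v = 1) →
      ∀ k, Even k → IsSquare ((P' ++ N.take k).map fun v => qOdd m F v).prod ∨ N.length < k := by
    intro P' hP' k hk
    by_cases hkl : N.length < k
    · exact Or.inr hkl
    refine Or.inl ?_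
    have h1 : (P'.map fun v => qOdd m F v).prod = 1 :=
      List.prod_eq_one fun x hx => by
        obtain ⟨v, hv, rfl⟩ := List.mem_map.mp hx; exact hP' v hv
    have h2' : ((N.take k).map fun v => qOdd m F v).prod = (-1) ^ k := by
      rw [List.map_eq_replicate_iff.mpr (fun v hv => hNne v (List.mem_of_mem_take hv)), List.prod_replicate,
        List.length_take, min_eq_left (not_lt.mp hkl)]
    rw [List.map_append, List.prod_append, h1, h2', one_mul, hk.neg_one_pow]
    exact ⟨1, (one_mul 1).symm⟩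
  rcases Nat.even_or_odd m with hev | hodd
  · refine ⟨P ++ N, by simp [hPlen, hNlen, two_mul], fun v hv => hmem v (List.mem_cons_of_mem _ hv),
      (List.pairwise_cons.mp hpw).2, fun r hr => ?_⟩
    rw [List.take_append]
    refine (key (P.take (2 * r)) (fun v hv => hPne v (List.mem_of_mem_take hv)) _ ?_).resolve_right (by omega)
    rcases le_or_gt (2 * r) P.length with h | h
    · rw [Nat.sub_eq_zero_of_le h]; exact Even.zero
    · rw [Nat.even_sub h.le, hPlen]; simp [hev]
  · refine ⟨(e0 :: P) ++ N, by simp [hPlen, hNlen, two_mul], fun v hv => hmem v (by simpa using hv),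
      by simpa using hpw, fun r hr => ?_⟩
    rw [List.take_append]
    refine (key ((e0 :: P).take (2 * r)) (fun v hv => ?_) _ ?_).resolve_right (by simp; omega)
    · rcases List.mem_cons.mp (List.mem_of_mem_take hv) with rfl | hv
      · exact hQ0
      · exact hPne v hv
    rcases le_or_gt (2 * r) (e0 :: P).length with h | h
    · rw [Nat.sub_eq_zero_of_le h]; exact Even.zero
    · rw [Nat.even_sub h.le, List.length_cons, hPlen]; simp [hodd.add_one]

end Cfsg.Agent.H2
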