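import Cfsg.Agent.H2.Generation
import Cfsg.Agent.H2.Decomp
import Cfsg.Agent.H2.Center
import Cfsg.Agent.H2.Card
import Cfsg.Agent.H4.Singular

/-!
Classes of involutions of PSp in odd characteristic: there are at most `m / 2 + 1` of them.
-/

set_option autoImplicit false

namespace Cfsg.Agent.H2

open Matrix

variable {m : ℕ} {F : Type*} [Field F]

attribute [-simp] spRho_apply sympBilin_apply

/-- The isometry underlying a symplectic matrix. -/
abbrev spLin (g : Matrix.symplecticGroup (Fin m) F) :
    Module.End F (Fin m ⊕ Fin m → F) := spRho m F g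

theorem spLin_isometry (g : Matrix.symplecticGroup (Fin m) F) (x y : Fin m ⊕ Fin m → F) :
    sympBilin m F (spLin g x) (spLin g y) = sympBilin m F x y := by simp [spRho_apply, sympBilin_apply]

/-- The fixed space of a symplectic matrix. -/
def fixSpace (g : Matrix.symplecticGroup (Fin m) F) : Submodule F (Fin m ⊕ Fin m → F) :=
  LinearMap.ker (spLin g - 1)

theorem mem_fixSpace {g : Matrix.symplecticGroup (Fin m) F} {x : Fin m ⊕ Fin m → F} :
    x ∈ fixSpace g ↔ spLin g x = x := by
  rw [fixSpace, LinearMap.mem_ker, LinearMap.sub_apply, Module.End.one_apply, sub_eq_zero]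

theorem spLin_involutive {g : Matrix.symplecticGroup (Fin m) F} (hg : g * g = 1)
    (x : Fin m ⊕ Fin m → F) : spLin g (spLin g x) = x := by
  rw [← Module.End.mul_apply, ← map_mul, hg, map_one, Module.End.one_apply]

/-- In odd characteristic an involution splits the space orthogonally. -/
theorem orth_fixSpace {g : Matrix.symplecticGroup (Fin m) F} (hg : g * g = 1) (h2 : (2 : F) ≠ 0) :
    (∀ u ∈ fixSpace g, (∀ v ∈ fixSpace g, sympBilin m F u v = 0) → u = 0) ∧
      ∀ x ∈ orth (sympBilin m F) (fixSpace g), spLin g x = -x := by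
  have hplus : ∀ x, (2 : F)⁻¹ • (x + spLin g x) ∈ fixSpace g := fun x => by
    rw [mem_fixSpace, map_smul, map_add, spLin_involutive hg, add_comm]
  have hminus : ∀ x, spLin g ((2 : F)⁻¹ • (x - spLin g x)) = -((2 : F)⁻¹ • (x - spLin g x)) :=
    fun x => by rw [map_smul, map_sub, spLin_involutive hg, ← smul_neg, neg_sub]
  have hdec : ∀ x : Fin m ⊕ Fin m → F,
      x = (2 : F)⁻¹ • (x + spLin g x) + (2 : F)⁻¹ • (x - spLin g x) := fun x => by
    rw [← smul_add, add_add_sub_cancel, ← two_smul F x, smul_smul, inv_mul_cancel₀ h2, one_smul]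
  have hneg : ∀ u v, spLin g u = u → spLin g v = -v → sympBilin m F u v = 0 := by
    intro u v hu hv
    have h := spLin_isometry g u v
    rw [hu, hv, map_neg] at h
    have : (2 : F) * sympBilin m F u v = 0 := by linear_combination -h
    exact (mul_eq_zero.mp this).resolve_left h2
  refine ⟨fun u hu h => (sympBilin_nondegenerate m F).1 u fun x => ?_, fun x hx => ?_⟩
  · rw [hdec x, map_add, h _ (hplus x), hneg u _ (mem_fixSpace.mp hu) (hminus x), add_zero]
  · have hp : (2 : F)⁻¹ • (x + spLin g x) = 0 := by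
      set p := (2 : F)⁻¹ • (x + spLin g x) with hpdef
      refine (sympBilin_nondegenerate m F).1 p fun y => ?_
      have h1 : ∀ w ∈ fixSpace g, sympBilin m F w p = 0 := by
        intro w hw
        have h3 := hx w hw
        rw [hdec x, map_add, hneg w _ (mem_fixSpace.mp hw) (hminus x), add_zero] at h3
        exact h3
      rw [hdec y, map_add, hneg p _ (mem_fixSpace.mp (hplus x)) (hminus y), add_zero,
        ← (sympBilin_isAlt m F).neg_eq, h1 _ (hplus y), neg_zero]
    have : x + spLin g x = 0 := (smul_eq_zero.mp hp).resolve_left (inv_ne_zero h2)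
    exact (neg_eq_of_add_eq_zero_right this).symm

/-- Two non-degenerate subspaces of equal dimension are in one orbit. -/
theorem exists_map_nondegenerate {W W' : Submodule F (Fin m ⊕ Fin m → F)}
    (hW : ∀ u ∈ W, (∀ v ∈ W, sympBilin m F u v = 0) → u = 0)
    (hW' : ∀ u ∈ W', (∀ v ∈ W', sympBilin m F u v = 0) → u = 0)
    (hd : Module.finrank F W = Module.finrank F W') :
    ∃ h : Matrix.symplecticGroup (Fin m) F, (∀ x ∈ W, spLin h x ∈ W') ∧
      ∀ x ∈ orth (sympBilin m F) W, spLin h x ∈ orth (sympBilin m F) W' := by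
  set B := sympBilin m F
  have hA : B.IsAlt := sympBilin_isAlt m F
  obtain ⟨k, e, hk, he⟩ := exists_equiv_std (B.restrict W) (restrict_nondegenerate B hA hW)
    (fun x => hA _)
  obtain ⟨k', e', hk', he'⟩ := exists_equiv_std (B.restrict W') (restrict_nondegenerate B hA hW')
    (fun x => hA _)
  obtain rfl : k = k' := by omega
  obtain ⟨φ, hφ, hφe⟩ := exists_isometry_extend B (sympBilin_nondegenerate m F) hA W
    (W'.subtype.comp (e.trans e'.symm).toLinearMap)
    (W'.injective_subtype.comp (e.trans e'.symm).injective) (fun x x' => by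
      have h1 := he' (e'.symm (e x)) (e'.symm (e x'))
      rw [e'.apply_symm_apply, e'.apply_symm_apply, he x x'] at h1
      exact h1.symm)
  refine ⟨(spEquivIsometries m F).symm ⟨φ, hφ⟩, ?_, ?_⟩
  · intro x hx
    have h1 : spLin ((spEquivIsometries m F).symm ⟨φ, hφ⟩) x = φ x := by
      rw [spRho_apply, ← spEquivIsometries_apply, MulEquiv.apply_symm_apply]
    rw [h1, hφe ⟨x, hx⟩]
    exact Subtype.coe_prop _
  · intro x hx z hz
    have h1 : spLin ((spEquivIsometries m F).symm ⟨φ, hφ⟩) x = φ x := by
      rw [spRho_apply, ← spEquivIsometries_apply, MulEquiv.apply_symm_apply]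
    obtain ⟨w, hw⟩ := (e.trans e'.symm).surjective ⟨z, hz⟩
    have hz' : φ w = z := (hφe w).trans (congrArg Subtype.val hw)
    rw [h1, ← hz', hφ _ _]
    exact hx _ w.2

/-- Involutions with fixed spaces of equal dimension are conjugate. -/
theorem isConj_involution {g g' : Matrix.symplecticGroup (Fin m) F} (h2 : (2 : F) ≠ 0)
    (hg : g * g = 1) (hg' : g' * g' = 1)
    (hd : Module.finrank F (fixSpace g) = Module.finrank F (fixSpace g')) : IsConj g g' := by
  obtain ⟨hW, hO⟩ := orth_fixSpace hg h2
  obtain ⟨hW', hO'⟩ := orth_fixSpace hg' h2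
  obtain ⟨h, h1, h3⟩ := exists_map_nondegenerate hW hW' hd
  refine isConj_iff.mpr ⟨h, ?_⟩
  rw [mul_inv_eq_iff_eq_mul]
  refine ext_of_mulVec fun x => ?_
  obtain ⟨⟨a, c⟩, rfl⟩ := (Submodule.prodEquivOfIsCompl _ _
    (isCompl_orth (sympBilin m F) (sympBilin_isAlt m F) hW)).surjective x
  rw [Submodule.coe_prodEquivOfIsCompl', ← spRho_apply, ← spRho_apply, map_mul, map_mul,
    Module.End.mul_apply, Module.End.mul_apply, map_add (spRho m F g) (a : Fin m ⊕ Fin m → F),
    mem_fixSpace.mp a.2, hO c c.2]
  simp only [map_add, map_neg]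
  rw [mem_fixSpace.mp (h1 _ a.2), hO' _ (h3 _ c.2)]

/-- A symplectic family adapted to an element squaring to `-1`. -/
def IsAdapted (g : Matrix.symplecticGroup (Fin m) F) {n : ℕ} (v : Fin n → Fin m ⊕ Fin m → F) : Prop :=
  (∀ i j, sympBilin m F (v i) (v j) = 0) ∧
    ∀ i j, sympBilin m F (v i) (spLin g (v j)) = if i = j then 1 else 0

theorem spLin_neg_sq {g : Matrix.symplecticGroup (Fin m) F}
    (hg : ((g * g : Matrix.symplecticGroup (Fin m) F) : Matrix (Fin m ⊕ Fin m) (Fin m ⊕ Fin m) F) = -1)
    (x : Fin m ⊕ Fin m → F) : spLin g (spLin g x) = -x := by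
  rw [← Module.End.mul_apply, ← map_mul, spRho_apply, hg, neg_mulVec, one_mulVec]

theorem sympBilin_spLin_comm {g : Matrix.symplecticGroup (Fin m) F}
    (hg : ((g * g : Matrix.symplecticGroup (Fin m) F) : Matrix (Fin m ⊕ Fin m) (Fin m ⊕ Fin m) F) = -1)
    (x y : Fin m ⊕ Fin m → F) : sympBilin m F x (spLin g y) = sympBilin m F y (spLin g x) := by
  have h := spLin_isometry g x (spLin g y)
  rw [spLin_neg_sq hg, map_neg, (sympBilin_isAlt m F).neg_eq] at h
  exact h.symm

/-- An adapted family gives a symplectic family. -/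
theorem IsAdapted.linearIndependent {g : Matrix.symplecticGroup (Fin m) F} {n : ℕ}
    {v : Fin n → Fin m ⊕ Fin m → F} (hv : IsAdapted g v) :
    LinearIndependent F (Sum.elim v fun i => spLin g (v i)) :=
  linearIndependent_symplectic_family _ (sympBilin_isAlt m F) v (fun i => spLin g (v i)) hv.2 hv.1
    fun i j => by rw [spLin_isometry]; exact hv.1 i j

/-- Elements squaring to `-1` have full adapted families. -/
theorem exists_adapted [Finite F] {g : Matrix.symplecticGroup (Fin m) F} (h2 : (2 : F) ≠ 0)
    (hg : ((g * g : Matrix.symplecticGroup (Fin m) F) : Matrix (Fin m ⊕ Fin m) (Fin m ⊕ Fin m) F) = -1) :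
    ∀ n ≤ m, ∃ v : Fin n → Fin m ⊕ Fin m → F, IsAdapted g v
  | 0, _ => ⟨Fin.elim0, fun i => i.elim0, fun i => i.elim0⟩
  | n + 1, hn => by
    obtain ⟨v, hv⟩ := exists_adapted h2 hg n (by omega)
    set B := sympBilin m F
    have hA : B.IsAlt := sympBilin_isAlt m F
    have hv1 : ∀ i j, B (v i) (v j) = 0 := hv.1
    have hv2 : ∀ i j, B (v i) (spLin g (v j)) = if i = j then 1 else 0 := hv.2
    have hcomm : ∀ x y, B x (spLin g y) = B y (spLin g x) := sympBilin_spLin_comm hg
    set fam : Fin n ⊕ Fin n → Fin m ⊕ Fin m → F := Sum.elim v fun i => spLin g (v i) with hfam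
    set W := Submodule.span F (Set.range fam) with hWdef
    have hgv : ∀ i j, B (spLin g (v i)) (v j) = if j = i then -1 else 0 := fun i j => by
      rw [← hA.neg_eq, hv.2]; split <;> simp
    have hgg : ∀ i j, B (spLin g (v i)) (spLin g (v j)) = 0 := fun i j => by
      rw [spLin_isometry]; exact hv.1 i j
    have hW : ∀ u ∈ W, (∀ z ∈ W, B u z = 0) → u = 0 := by
      intro u hu hz
      obtain ⟨c, rfl⟩ := (Submodule.mem_span_range_iff_exists_fun F).mp hu
      refine Finset.sum_eq_zero fun s _ => ?_
      rcases s with i | i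
      · have h := hz _ (Submodule.subset_span ⟨Sum.inr i, rfl⟩)
        simp [hfam, Fintype.sum_sum_type, map_add, map_sum, LinearMap.add_apply, LinearMap.sum_apply,
          hv2, hgg] at h
        simp [h]
      · have h := hz _ (Submodule.subset_span ⟨Sum.inl i, rfl⟩)
        simp [hfam, Fintype.sum_sum_type, map_add, map_sum, LinearMap.add_apply, LinearMap.sum_apply,
          hv1, hgv] at h
        simp [h]
    have hc := isCompl_orth B hA hW
    set O := orth B W
    have hO : ∀ x ∈ O, spLin g x ∈ O := by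
      intro x hx z hz
      induction hz using Submodule.span_induction with
      | mem z hz =>
        obtain ⟨s, rfl⟩ := hz
        rcases s with i | i
        · show B (v i) (spLin g x) = 0
          rw [hcomm, ← hA.neg_eq,
            show B (spLin g (v i)) x = 0 from hx _ (Submodule.subset_span ⟨Sum.inr i, rfl⟩), neg_zero]
        · show B (spLin g (v i)) (spLin g x) = 0
          rw [spLin_isometry]
          exact hx _ (Submodule.subset_span ⟨Sum.inl i, rfl⟩)
      | zero => simp
      | add a b _ _ ha hb => simp [ha, hb]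
      | smul c a _ ha => simp [ha]
    let g' : O →ₗ[F] O := (spLin g).restrict hO
    let Q : QuadraticForm F O := LinearMap.BilinMap.toQuadraticMap
      ((B.restrict O).compl₂ g')
    have hQapply : ∀ x : O, Q x = B (x : Fin m ⊕ Fin m → F) (spLin g x) := fun x => rfl
    have hpolar : ∀ x y : O, QuadraticMap.polar Q x y = 2 * B (x : Fin m ⊕ Fin m → F) (spLin g y) := by
      intro x y
      simp only [QuadraticMap.polar, hQapply, Submodule.coe_add, map_add, LinearMap.add_apply,
        hcomm (y : Fin m ⊕ Fin m → F) x]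
      ring
    have hnd : (QuadraticMap.polarBilin Q).Nondegenerate := by
      have key : ∀ x, (∀ y, QuadraticMap.polar Q x y = 0) → x = 0 := by
        intro x hx
        refine (restrict_orth_nondegenerate B hA (sympBilin_nondegenerate m F) hc).1 x fun y => ?_
        have h3 := hx ⟨spLin g (y : Fin m ⊕ Fin m → F), hO _ y.2⟩
        rw [hpolar] at h3
        simp only [spLin_neg_sq hg, map_neg, mul_neg, neg_eq_zero, mul_eq_zero, h2, false_or] at h3
        exact h3
      exact ⟨fun x hx => key x hx, fun y hy => key y fun x => by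
        rw [QuadraticMap.polar_comm]; exact hy x⟩
    have hdim : 2 ≤ Module.finrank F O := by
      have h3 := Submodule.finrank_add_eq_of_isCompl hc
      rw [show Module.finrank F W = n + n by
        rw [hWdef, finrank_span_eq_card hv.linearIndependent]; simp] at h3
      simp at h3
      omega
    obtain ⟨y, -, hy⟩ := H4.exists_value hnd hdim (one_ne_zero (α := F))
    rw [hQapply] at hy
    have hyv : ∀ i, B (v i) y = 0 := fun i => y.2 _ (Submodule.subset_span ⟨Sum.inl i, rfl⟩)
    have hygv : ∀ i, B (spLin g (v i)) y = 0 := fun i => y.2 _ (Submodule.subset_span ⟨Sum.inr i, rfl⟩)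
    refine ⟨Fin.cons (y : Fin m ⊕ Fin m → F) v, ?_, ?_⟩
    · intro i j
      refine Fin.cases ?_ (fun i => ?_) i <;> refine Fin.cases ?_ (fun j => ?_) j
      · exact hA _
      · show B _ _ = 0
        simp [← hA.neg_eq (v j), hyv]
      · show B _ _ = 0
        simpa using hyv i
      · simpa using hv1 i j
    · intro i j
      refine Fin.cases ?_ (fun i => ?_) i <;> refine Fin.cases ?_ (fun j => ?_) j
      · simpa using hy
      · simp only [Fin.cons_succ, Fin.cons_zero, if_neg (Fin.succ_ne_zero j).symm]
        show B _ _ = 0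
        rw [← hA.neg_eq, hygv, neg_zero]
      · simp only [Fin.cons_succ, Fin.cons_zero, Fin.succ_ne_zero, if_false]
        rw [hcomm, ← hA.neg_eq, hygv, neg_zero]
      · simpa using hv2 i j

/-- All elements squaring to `-1` are conjugate over a finite field of odd characteristic. -/
theorem isConj_sq_neg_one [Finite F] {g g' : Matrix.symplecticGroup (Fin m) F} (h2 : (2 : F) ≠ 0)
    (hg : ((g * g : Matrix.symplecticGroup (Fin m) F) : Matrix (Fin m ⊕ Fin m) (Fin m ⊕ Fin m) F) = -1)
    (hg' : ((g' * g' : Matrix.symplecticGroup (Fin m) F) : Matrix (Fin m ⊕ Fin m) (Fin m ⊕ Fin m) F) = -1) :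
    IsConj g g' := by
  obtain ⟨v, hv⟩ := exists_adapted h2 hg m le_rfl
  obtain ⟨v', hv'⟩ := exists_adapted h2 hg' m le_rfl
  let x : Fin (m + m) → Fin m ⊕ Fin m → F :=
    (Sum.elim v fun i => spLin g (v i)) ∘ finSumFinEquiv.symm
  let x' : Fin (m + m) → Fin m ⊕ Fin m → F :=
    (Sum.elim v' fun i => spLin g' (v' i)) ∘ finSumFinEquiv.symm
  have hx : LinearIndependent F x := hv.linearIndependent.comp _ (Equiv.injective _)
  have hx' : LinearIndependent F x' := hv'.linearIndependent.comp _ (Equiv.injective _)
  have hgram : ∀ {a : Matrix.symplecticGroup (Fin m) F} {w : Fin m → Fin m ⊕ Fin m → F},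
      IsAdapted a w → ∀ s t : Fin m ⊕ Fin m,
      sympBilin m F (Sum.elim w (fun i => spLin a (w i)) s) (Sum.elim w (fun i => spLin a (w i)) t) =
        Sum.elim (fun i => Sum.elim (fun _ => 0) (fun j => if i = j then (1 : F) else 0) t)
          (fun i => Sum.elim (fun j => if j = i then (-1 : F) else 0) (fun _ => 0) t) s := by
    intro a w hw s t
    rcases s with i | i <;> rcases t with j | j <;> simp only [Sum.elim_inl, Sum.elim_inr]
    · exact hw.1 i j
    · exact hw.2 i j
    · rw [← (sympBilin_isAlt m F).neg_eq, hw.2]; split <;> simp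
    · rw [spLin_isometry]; exact hw.1 i j
  obtain ⟨h, hh⟩ := exists_map_tuple x x' hx hx' fun i j => by
    rw [← sympBilin_apply, ← sympBilin_apply]
    exact (hgram hv _ _).trans (hgram hv' _ _).symm
  have hh' : ∀ s, spLin h (Sum.elim v (fun i => spLin g (v i)) s) =
      Sum.elim v' (fun i => spLin g' (v' i)) s := fun s => by
    have := hh (finSumFinEquiv s)
    simpa [x, x', spRho_apply] using this
  refine isConj_iff.mpr ⟨h, ?_⟩
  rw [mul_inv_eq_iff_eq_mul]
  have : spRho m F (h * g) = spRho m F (g' * h) := by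
    refine LinearMap.ext_on_range (v := Sum.elim v fun i => spLin g (v i))
      (hv.linearIndependent.span_eq_top_of_card_eq_finrank' (by simp)) fun s => ?_
    rw [map_mul, map_mul, Module.End.mul_apply, Module.End.mul_apply, hh']
    rcases s with i | i
    · exact hh' (Sum.inr i)
    · simp only [Sum.elim_inr]
      rw [spLin_neg_sq hg, spLin_neg_sq hg', map_neg]
      exact congrArg Neg.neg (hh' (Sum.inl i))
  exact ext_of_mulVec fun z => by simpa [spRho_apply] using LinearMap.congr_fun this z

/-- The invariant of an involution of PSp. -/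
def InvolutionType (j : ℕ) (x : Cfsg.PSp m F) : Prop :=
  ∃ g : Matrix.symplecticGroup (Fin m) F, QuotientGroup.mk' _ g = x ∧
    if j = 0 then
      ((g * g : Matrix.symplecticGroup (Fin m) F) : Matrix (Fin m ⊕ Fin m) (Fin m ⊕ Fin m) F) = -1
    else g * g = 1 ∧ Module.finrank F (fixSpace g) = 2 * j

theorem isConj_of_involutionType [Finite F] (h2 : (2 : F) ≠ 0) {j : ℕ} {x y : Cfsg.PSp m F}
    (hx : InvolutionType j x) (hy : InvolutionType j y) : IsConj x y := by
  obtain ⟨g, rfl, hg⟩ := hx
  obtain ⟨g', rfl, hg'⟩ := hy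
  refine MonoidHom.map_isConj _ ?_
  split at hg
  · rename_i hj
    rw [if_pos hj] at hg'
    exact isConj_sq_neg_one h2 hg hg'
  · rename_i hj
    rw [if_neg hj] at hg'
    exact isConj_involution h2 hg.1 hg'.1 (hg.2.trans hg'.2.symm)

/-- Every involution has one of `m / 2 + 1` types. -/
theorem exists_involutionType (hm : 1 ≤ m) (h2 : (2 : F) ≠ 0) {x : Cfsg.PSp m F} (hx : x * x = 1)
    (hx1 : x ≠ 1) : ∃ j ≤ m / 2, InvolutionType j x := by
  obtain ⟨g, rfl⟩ := QuotientGroup.mk'_surjective _ x
  rw [← map_mul, QuotientGroup.mk'_apply, QuotientGroup.eq_one_iff, mem_center_iff_eq hm] at hx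
  rw [Ne, QuotientGroup.mk'_apply, QuotientGroup.eq_one_iff, mem_center_iff_eq hm] at hx1
  rcases hx with hx | hx
  swap
  · exact ⟨0, Nat.zero_le _, g, rfl, by rw [if_pos rfl]; exact hx⟩
  have hg : g * g = 1 := Subtype.ext hx
  obtain ⟨hW, hO⟩ := orth_fixSpace hg h2
  set W := fixSpace g
  have hc := isCompl_orth (sympBilin m F) (sympBilin_isAlt m F) hW
  obtain ⟨k, -, hk, -⟩ := exists_equiv_std ((sympBilin m F).restrict W)
    (restrict_nondegenerate _ (sympBilin_isAlt m F) hW) (fun z => sympBilin_isAlt m F _)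
  have hk0 : k ≠ 0 := by
    rintro rfl
    apply hx1 ∘ Or.inr
    refine Matrix.ext_of_mulVec_single fun i => ?_
    have htop : orth (sympBilin m F) W = ⊤ := by
      have h0 : W = ⊥ := Submodule.finrank_eq_zero.mp hk
      refine eq_top_of_bot_isCompl ?_
      nth_rewrite 1 [← h0]
      exact hc
    rw [← spRho_apply, hO _ (by rw [htop]; trivial), neg_mulVec, one_mulVec]
  have hkm : k < m := by
    by_contra hle
    apply hx1 ∘ Or.inl
    have htop : W = ⊤ := by
      apply Submodule.eq_top_of_finrank_eq
      have := Submodule.finrank_le W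
      simp at this ⊢
      omega
    refine Matrix.ext_of_mulVec_single fun i => ?_
    rw [← spRho_apply, mem_fixSpace.mp (by rw [show fixSpace g = ⊤ from htop]; trivial), one_mulVec]
  rcases le_or_gt k (m / 2) with hle | hgt
  · exact ⟨k, hle, g, rfl, by rw [if_neg hk0]; exact ⟨hg, hk⟩⟩
  · -- replace `g` by `-g`
    let z : Matrix.symplecticGroup (Fin m) F :=
      ⟨-1, SymplecticGroup.neg_mem (Submonoid.one_mem _)⟩
    have hz : z ∈ Subgroup.center (Matrix.symplecticGroup (Fin m) F) :=
      (mem_center_iff_eq hm _).mpr (Or.inr rfl)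
    have hzapply : ∀ y, spLin (z * g) y = -spLin g y := fun y => by
      show spRho m F (z * g) y = _
      rw [map_mul, Module.End.mul_apply, spRho_apply z]
      exact (neg_mulVec _ _).trans (by rw [one_mulVec])
    refine ⟨m - k, by omega, z * g, ?_, ?_⟩
    · rw [map_mul, QuotientGroup.mk'_apply, (QuotientGroup.eq_one_iff z).mpr hz, one_mul]
    rw [if_neg (by omega)]
    refine ⟨?_, ?_⟩
    · calc z * g * (z * g) = z * (g * z) * g := by group
        _ = z * z * (g * g) := by rw [(Subgroup.mem_center_iff.mp hz g)]; group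
        _ = 1 := by
          rw [hg, mul_one]
          exact Subtype.ext (by simp [z])
    · have hfix : fixSpace (z * g) = orth (sympBilin m F) W := by
        refine le_antisymm (fun y hy => ?_) (fun y hy => ?_)
        · rw [mem_fixSpace, hzapply] at hy
          obtain ⟨⟨a, c⟩, rfl⟩ := (Submodule.prodEquivOfIsCompl _ _ hc).surjective y
          rw [Submodule.coe_prodEquivOfIsCompl'] at hy ⊢
          rw [map_add, mem_fixSpace.mp a.2, hO c c.2, neg_add, neg_neg, add_left_inj] at hy
          have : (a : Fin m ⊕ Fin m → F) = 0 := by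
            have h4 : (2 : F) • (a : Fin m ⊕ Fin m → F) = 0 := by
              rw [two_smul]; nth_rewrite 1 [← hy]; exact neg_add_cancel _
            exact (smul_eq_zero.mp h4).resolve_left h2
          rw [this, zero_add]
          exact c.2
        · rw [mem_fixSpace, hzapply, hO y hy, neg_neg]
      rw [hfix]
      have := Submodule.finrank_add_eq_of_isCompl hc
      simp at this
      omega

end Cfsg.Agent.H2
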