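import Cfsg.Agent.H2.Form

/-!
The normaliser of the diagonal torus of the symplectic group.
-/

set_option autoImplicit false

namespace Cfsg.Agent.H2

open Matrix

variable {m : ℕ} {F : Type*} [Field F]

/-- The coordinate index on side `b`. -/
def sideIdx (b : Bool) (i : Fin m) : Fin m ⊕ Fin m := if b then Sum.inr i else Sum.inl i

theorem sideIdx_inj {b b' : Bool} {i i' : Fin m} (h : sideIdx b i = sideIdx b' i') : b = b' ∧ i = i' := by
  cases b <;> cases b' <;> simp [sideIdx] at h ⊢ <;> exact h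

theorem exists_sideIdx (x : Fin m ⊕ Fin m) : ∃ b i, x = sideIdx b i := by
  rcases x with i | i
  · exact ⟨false, i, rfl⟩
  · exact ⟨true, i, rfl⟩

theorem sympForm_side (b b' : Bool) (i j : Fin m) :
    Cfsg.sympForm m F (Pi.single (sideIdx b i) 1) (Pi.single (sideIdx b' j) 1) =
      if i = j ∧ b ≠ b' then (if b then 1 else -1) else 0 := by
  cases b <;> cases b' <;> simp [sideIdx, sympForm_single_inl, sympForm_single_inr, Pi.single_apply] <;>
    split <;> simp_all

/-- The diagonal torus: the elements fixing every coordinate axis. -/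
def torus (m : ℕ) (F : Type*) [Field F] : Subgroup (Matrix.symplecticGroup (Fin m) F) :=
  ⨅ i : Fin m ⊕ Fin m, Cfsg.stabilizing (Cfsg.spToMat m F)
    ((Submodule.span F {(Pi.single i (1 : F) : Fin m ⊕ Fin m → F)} :
      Submodule F (Fin m ⊕ Fin m → F)) : Set (Fin m ⊕ Fin m → F))

/-- The matrix applied to a basis vector. -/
theorem mulVec_single_eq (A : Matrix (Fin m ⊕ Fin m) (Fin m ⊕ Fin m) F) (c r : Fin m ⊕ Fin m) :
    (A *ᵥ Pi.single c 1) r = A r c := by simp

theorem exists_smul_single_iff (v : Fin m ⊕ Fin m → F) (i : Fin m ⊕ Fin m) :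
    (∃ a : F, a • (Pi.single i (1 : F) : Fin m ⊕ Fin m → F) = v) ↔ ∀ j, j ≠ i → v j = 0 := by
  constructor
  · rintro ⟨a, rfl⟩ j hj
    simp [hj]
  · intro h
    refine ⟨v i, funext fun j => ?_⟩
    by_cases hj : j = i
    · subst hj; simp
    · simp [hj, h j hj]

theorem mem_torus_iff (g : Matrix.symplecticGroup (Fin m) F) :
    g ∈ torus m F ↔ (g : Matrix (Fin m ⊕ Fin m) (Fin m ⊕ Fin m) F).IsDiag := by
  simp only [torus, Subgroup.mem_iInf]
  refine ⟨fun h r c hrc => ?_, fun h i v => ?_⟩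
  · have h1 := (h c (Pi.single c 1)).mp (Submodule.mem_span_singleton_self _)
    rw [SetLike.mem_coe, Submodule.mem_span_singleton, exists_smul_single_iff] at h1
    simpa [Cfsg.spToMat] using h1 r hrc
  · have hne : ∀ j, (g : Matrix (Fin m ⊕ Fin m) (Fin m ⊕ Fin m) F) j j ≠ 0 := by
      intro j hj
      have hdet := (SymplecticGroup.symplectic_det g.2).ne_zero
      rw [← h.diagonal_diag, det_diagonal] at hdet
      exact hdet (Finset.prod_eq_zero (Finset.mem_univ j) hj)
    have hmv : ∀ j, ((g : Matrix (Fin m ⊕ Fin m) (Fin m ⊕ Fin m) F) *ᵥ v) j =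
        (g : Matrix (Fin m ⊕ Fin m) (Fin m ⊕ Fin m) F) j j * v j := fun j => by
      conv_lhs => rw [← h.diagonal_diag]
      rw [mulVec_diagonal]
      rfl
    simp only [SetLike.mem_coe, Submodule.mem_span_singleton, exists_smul_single_iff]
    exact forall_congr' fun j => imp_congr_right fun _ => by
      show v j = 0 ↔ ((g : Matrix (Fin m ⊕ Fin m) (Fin m ⊕ Fin m) F) *ᵥ v) j = 0
      rw [hmv, mul_eq_zero, or_iff_right (hne j)]

/-- A signed monomial symplectic matrix. -/
def monoMat (π : Equiv.Perm (Fin m)) (s : Fin m → Bool) (a : Fin m → Fˣ) :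
    Matrix (Fin m ⊕ Fin m) (Fin m ⊕ Fin m) F :=
  Matrix.of fun r c => Sum.elim
    (fun i => if r = sideIdx (s i) (π i) then (a i : F) else 0)
    (fun i => if r = sideIdx (!(s i)) (π i) then (if s i then -(↑(a i)⁻¹ : F) else (↑(a i)⁻¹ : F)) else 0)
    c

theorem monoMat_inl (π : Equiv.Perm (Fin m)) (s : Fin m → Bool) (a : Fin m → Fˣ) (i : Fin m) :
    monoMat π s a *ᵥ Pi.single (Sum.inl i) 1 = (a i : F) • Pi.single (sideIdx (s i) (π i)) 1 := by
  funext r
  simp [monoMat, Pi.single_apply]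

theorem monoMat_inr (π : Equiv.Perm (Fin m)) (s : Fin m → Bool) (a : Fin m → Fˣ) (i : Fin m) :
    monoMat π s a *ᵥ Pi.single (Sum.inr i) 1 =
      (if s i then -(↑(a i)⁻¹ : F) else (↑(a i)⁻¹ : F)) • Pi.single (sideIdx (!(s i)) (π i)) 1 := by
  funext r
  simp [monoMat, Pi.single_apply]

theorem monoMat_mem (π : Equiv.Perm (Fin m)) (s : Fin m → Bool) (a : Fin m → Fˣ) :
    monoMat π s a ∈ Matrix.symplecticGroup (Fin m) F := by
  rw [mem_symplecticGroup_iff]
  suffices h : (sympBilin m F).compl₁₂ (Matrix.toLin' (monoMat π s a)) (Matrix.toLin' (monoMat π s a)) =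
      sympBilin m F by
    intro u v
    simpa [Matrix.toLin'_apply] using LinearMap.congr_fun (LinearMap.congr_fun h u) v
  refine LinearMap.ext_basis (Pi.basisFun F _) (Pi.basisFun F _) fun x y => ?_
  simp only [Pi.basisFun_apply, LinearMap.compl₁₂_apply, Matrix.toLin'_apply]
  rcases x with i | i <;> rcases y with j | j <;>
    simp only [monoMat_inl, monoMat_inr, map_smul, LinearMap.smul_apply, smul_eq_mul, sympBilin_apply,
      sympForm_side, sympForm_single_inl, sympForm_single_inr, π.injective.eq_iff, Pi.single_apply] <;>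
    by_cases hij : i = j
  all_goals first
    | (subst hij; cases hs : s i <;> simp [hs])
    | simp [hij, Ne.symm hij]

/-- Every column of a monomial matrix is supported on one coordinate. -/
theorem monoMat_column (π : Equiv.Perm (Fin m)) (s : Fin m → Bool) (a : Fin m → Fˣ)
    (c : Fin m ⊕ Fin m) :
    ∃ r₀, ∀ r, r ≠ r₀ → monoMat π s a r c = 0 := by
  rcases c with i | i
  · exact ⟨sideIdx (s i) (π i), fun r hr => by simp [monoMat, hr]⟩
  · exact ⟨sideIdx (!(s i)) (π i), fun r hr => by simp [monoMat, hr]⟩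

/-- A unit is recovered from a monomial matrix. -/
theorem monoMat_injective {π π' : Equiv.Perm (Fin m)} {s s' : Fin m → Bool} {a a' : Fin m → Fˣ}
    (h : monoMat π s a = monoMat π' s' a') : π = π' ∧ s = s' ∧ a = a' := by
  have key : ∀ i, s i = s' i ∧ π i = π' i ∧ a i = a' i := fun i => by
    have h2 := congrFun (congrFun h (sideIdx (s i) (π i))) (Sum.inl i)
    simp only [monoMat, Matrix.of_apply, Sum.elim_inl, if_pos] at h2
    by_cases hh : sideIdx (s i) (π i) = sideIdx (s' i) (π' i)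
    · rw [if_pos hh] at h2
      exact ⟨(sideIdx_inj hh).1, (sideIdx_inj hh).2, Units.ext h2⟩
    · rw [if_neg hh] at h2
      exact absurd h2 (a i).ne_zero
  exact ⟨Equiv.ext fun i => (key i).2.1, funext fun i => (key i).1, funext fun i => (key i).2.2⟩

/-- Conjugation of diagonal by monomial is diagonal. -/
theorem conj_mem_torus {g t : Matrix.symplecticGroup (Fin m) F}
    (hg : ∀ c, ∃ r₀, ∀ r, r ≠ r₀ → (g : Matrix (Fin m ⊕ Fin m) (Fin m ⊕ Fin m) F) r c = 0)
    (ht : t ∈ torus m F) : g⁻¹ * t * g ∈ torus m F := by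
  rw [mem_torus_iff] at ht ⊢
  intro r c hrc
  obtain ⟨r₀, hr₀⟩ := hg c
  have hinv : ((g⁻¹ * g : Matrix.symplecticGroup (Fin m) F) : Matrix (Fin m ⊕ Fin m) (Fin m ⊕ Fin m) F) r c = 0 := by
    rw [inv_mul_cancel, Submonoid.coe_one, one_apply_ne hrc]
  rw [Submonoid.coe_mul, mul_apply, Finset.sum_eq_single r₀ (fun b _ hb => by simp [hr₀ b hb]) (by simp)] at hinv
  rw [Submonoid.coe_mul, Submonoid.coe_mul, mul_assoc, mul_apply,
    Finset.sum_eq_single r₀ (fun b _ hb => ?_) (by simp), ← ht.diagonal_diag, diagonal_mul,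
    mul_left_comm, hinv, mul_zero]
  rw [← ht.diagonal_diag, diagonal_mul, hr₀ b hb, mul_zero, mul_zero]

/-- A finite field with at least four elements has torus elements separating two coordinates. -/
theorem exists_torus_separate [Fintype F] (hq : 4 ≤ Fintype.card F) {x y : Fin m ⊕ Fin m} (h : x ≠ y) :
    ∃ t ∈ torus m F, (t : Matrix (Fin m ⊕ Fin m) (Fin m ⊕ Fin m) F) x x ≠
      (t : Matrix (Fin m ⊕ Fin m) (Fin m ⊕ Fin m) F) y y := by
  classical
  obtain ⟨a, -, ha⟩ := Finset.exists_mem_notMem_of_card_lt_card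
    (s := ({0, 1, -1} : Finset F)) (t := Finset.univ) (by
      have := Finset.card_le_three (a := (0 : F)) (b := 1) (c := -1)
      rw [Finset.card_univ]; omega)
  simp only [Finset.mem_insert, Finset.mem_singleton, not_or] at ha
  obtain ⟨bx, i, rfl⟩ := exists_sideIdx x
  let u : Fˣ := Units.mk0 a ha.1
  have hua : (u : F) ≠ (↑u⁻¹ : F) := by
    intro h2
    have : a * a = 1 := by
      have h3 := u.mul_inv
      rwa [← h2] at h3
    exact (mul_self_eq_one_iff.mp this).elim ha.2.1 ha.2.2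
  let d : Fin m → Fˣ := fun j => if j = i then u else 1
  refine ⟨⟨monoMat 1 (fun _ => false) d, monoMat_mem _ _ _⟩, ?_, ?_⟩
  · rw [mem_torus_iff]
    rintro r (j | j) hrc <;> simp [monoMat, sideIdx, hrc]
  · obtain ⟨by', j, rfl⟩ := exists_sideIdx y
    have hd : ∀ (b : Bool) (k : Fin m), monoMat 1 (fun _ => false) d (sideIdx b k) (sideIdx b k) =
        if b then (↑(d k)⁻¹ : F) else (d k : F) := by
      intro b k; cases b <;> simp [monoMat, sideIdx]
    simp only [hd]
    by_cases hji : j = i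
    · subst hji
      cases bx <;> cases by' <;> simp_all [d, sideIdx, eq_comm]
    · have hdi : d i = u := by simp [d]
      have hdj : d j = 1 := by simp [d, hji]
      rw [hdi, hdj]
      have h1 : (↑u⁻¹ : F) ≠ 1 := by
        intro h2
        exact ha.2.1 (by simpa [u] using h2)
      cases bx <;> cases by' <;> simp only [Bool.false_eq_true, if_false, if_true, inv_one, Units.val_one] <;>
        first | exact ha.2.1 | exact h1

/-- A normalising element has monomial columns. -/
theorem column_of_normalizer [Fintype F] (hq : 4 ≤ Fintype.card F) {g : Matrix.symplecticGroup (Fin m) F}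
    (hg : ∀ t ∈ torus m F, g⁻¹ * t * g ∈ torus m F) (c : Fin m ⊕ Fin m) :
    ∃ r₀, (g : Matrix (Fin m ⊕ Fin m) (Fin m ⊕ Fin m) F) r₀ c ≠ 0 ∧
      ∀ r, r ≠ r₀ → (g : Matrix (Fin m ⊕ Fin m) (Fin m ⊕ Fin m) F) r c = 0 := by
  obtain ⟨r₀, hr₀⟩ : ∃ r₀, (g : Matrix (Fin m ⊕ Fin m) (Fin m ⊕ Fin m) F) r₀ c ≠ 0 := by
    by_contra h
    push Not at h
    exact (SymplecticGroup.symplectic_det g.2).ne_zero (det_eq_zero_of_column_eq_zero c h)
  refine ⟨r₀, hr₀, fun r hr => ?_⟩
  by_contra hne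
  obtain ⟨t, ht, hsep⟩ := exists_torus_separate hq hr
  have hd := (mem_torus_iff t).mp ht
  have hs := (mem_torus_iff _).mp (hg t ht)
  set s := g⁻¹ * t * g with hsdef
  have heq : t * g = g * s := by simp [hsdef, mul_assoc]
  have key : ∀ p, (t : Matrix (Fin m ⊕ Fin m) (Fin m ⊕ Fin m) F) p p *
      (g : Matrix (Fin m ⊕ Fin m) (Fin m ⊕ Fin m) F) p c =
      (g : Matrix (Fin m ⊕ Fin m) (Fin m ⊕ Fin m) F) p c *
      (s : Matrix (Fin m ⊕ Fin m) (Fin m ⊕ Fin m) F) c c := by
    intro p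
    have h := congrArg (fun k : Matrix.symplecticGroup (Fin m) F =>
      (k : Matrix (Fin m ⊕ Fin m) (Fin m ⊕ Fin m) F) p c) heq
    simp only [Submonoid.coe_mul] at h
    rw [← hd.diagonal_diag, diagonal_mul, ← hs.diagonal_diag, mul_diagonal] at h
    exact h
  apply hsep
  have h1 := key r
  have h2 := key r₀
  rw [mul_comm] at h1 h2
  exact (mul_left_cancel₀ hne h1).trans (mul_left_cancel₀ hr₀ h2).symm

/-- An element with monomial columns is a signed monomial matrix. -/
theorem exists_monoMat {g : Matrix.symplecticGroup (Fin m) F}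
    (hg : ∀ c, ∃ r₀, (g : Matrix (Fin m ⊕ Fin m) (Fin m ⊕ Fin m) F) r₀ c ≠ 0 ∧
      ∀ r, r ≠ r₀ → (g : Matrix (Fin m ⊕ Fin m) (Fin m ⊕ Fin m) F) r c = 0) :
    ∃ π s a, monoMat π s a = (g : Matrix (Fin m ⊕ Fin m) (Fin m ⊕ Fin m) F) := by
  choose σ hσ hσ' using hg
  have hcol : ∀ c, (g : Matrix (Fin m ⊕ Fin m) (Fin m ⊕ Fin m) F) *ᵥ Pi.single c 1 =
      (g : Matrix (Fin m ⊕ Fin m) (Fin m ⊕ Fin m) F) (σ c) c • Pi.single (σ c) 1 := by
    intro c
    funext r
    by_cases hr : r = σ c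
    · simp [hr]
    · simp [hr, hσ' c r hr]
  have hform : ∀ c d, Cfsg.sympForm m F (Pi.single c 1) (Pi.single d 1) =
      (g : Matrix (Fin m ⊕ Fin m) (Fin m ⊕ Fin m) F) (σ c) c *
      ((g : Matrix (Fin m ⊕ Fin m) (Fin m ⊕ Fin m) F) (σ d) d *
      Cfsg.sympForm m F (Pi.single (σ c) 1) (Pi.single (σ d) 1)) := by
    intro c d
    rw [← sympForm_mulVec g, hcol, hcol, ← sympBilin_apply, ← sympBilin_apply]
    simp only [map_smul, LinearMap.smul_apply, smul_eq_mul]
    ring
  have hside : ∀ c, ∃ b i, σ c = sideIdx b i := fun c => exists_sideIdx _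
  choose b p hbp using hside
  have hlr : ∀ i, p (Sum.inr i) = p (Sum.inl i) ∧ b (Sum.inr i) = !(b (Sum.inl i)) := by
    intro i
    have h := hform (Sum.inl i) (Sum.inr i)
    rw [hbp, hbp, sympForm_side, sympForm_single_inl, Pi.single_eq_same] at h
    by_cases hh : p (Sum.inl i) = p (Sum.inr i) ∧ b (Sum.inl i) ≠ b (Sum.inr i)
    · exact ⟨hh.1.symm, by cases h1 : b (Sum.inl i) <;> cases h2 : b (Sum.inr i) <;> simp_all⟩
    · rw [if_neg hh] at h; simp at h
  have hinj : Function.Injective fun i => p (Sum.inl i) := by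
    intro i j hij
    simp only at hij
    by_contra hne
    have h1 := hform (Sum.inl i) (Sum.inl j)
    have h2 := hform (Sum.inr i) (Sum.inl j)
    rw [hbp, hbp, sympForm_side, sympForm_single_inl, Pi.single_eq_of_ne (by simp)] at h1
    rw [hbp, hbp, sympForm_side, sympForm_single_inr, Pi.single_eq_of_ne (by simp [hne]),
      (hlr i).1, (hlr i).2] at h2
    have hne1 : ∀ c, (g : Matrix (Fin m ⊕ Fin m) (Fin m ⊕ Fin m) F) (sideIdx (b c) (p c)) c ≠ 0 :=
      fun c => hbp c ▸ hσ c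
    have hsign : ∀ z : Bool, (if z then (1 : F) else -1) ≠ 0 := fun z => by cases z <;> simp
    have hne2 := hne1 (Sum.inr i)
    rw [(hlr i).1, (hlr i).2] at hne2
    by_cases hb : b (Sum.inl i) = b (Sum.inl j)
    · rw [if_pos ⟨hij, by rw [← hb]; cases b (Sum.inl i) <;> simp⟩] at h2
      exact mul_ne_zero hne2 (mul_ne_zero (hne1 (Sum.inl j)) (hsign _)) h2.symm
    · rw [if_pos ⟨hij, hb⟩, neg_zero] at h1
      exact mul_ne_zero (hne1 (Sum.inl i)) (mul_ne_zero (hne1 (Sum.inl j)) (hsign _)) h1.symm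
  let π : Equiv.Perm (Fin m) := Equiv.ofBijective _ (Finite.injective_iff_bijective.mp hinj)
  refine ⟨π, fun i => b (Sum.inl i), fun i => Units.mk0 _ (hσ (Sum.inl i)), ?_⟩
  refine Matrix.ext_of_mulVec_single fun c => ?_
  rw [hcol]
  rcases c with i | i
  · rw [monoMat_inl]
    show (g : Matrix (Fin m ⊕ Fin m) (Fin m ⊕ Fin m) F) (σ (Sum.inl i)) (Sum.inl i) •
      (Pi.single (sideIdx (b (Sum.inl i)) (p (Sum.inl i))) (1 : F) : Fin m ⊕ Fin m → F) = _
    rw [← hbp]
  · rw [monoMat_inr]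
    have hs : σ (Sum.inr i) = sideIdx (!(b (Sum.inl i))) (π i) := by
      rw [hbp, (hlr i).1, (hlr i).2]
      rfl
    show _ • (Pi.single (sideIdx (!(b (Sum.inl i))) (π i)) (1 : F) : Fin m ⊕ Fin m → F) = _
    rw [← hs]
    congr 1
    have h := hform (Sum.inl i) (Sum.inr i)
    rw [sympForm_single_inl, Pi.single_eq_same, hs] at h
    set y := (g : Matrix (Fin m ⊕ Fin m) (Fin m ⊕ Fin m) F) (σ (Sum.inr i)) (Sum.inr i) with hy
    set x := (g : Matrix (Fin m ⊕ Fin m) (Fin m ⊕ Fin m) F) (σ (Sum.inl i)) (Sum.inl i) with hx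
    rw [← hs, ← hy, hs, hbp (Sum.inl i), sympForm_side, if_pos ⟨rfl, by simp⟩] at h
    simp only [Units.val_inv_eq_inv_val, Units.val_mk0]
    cases hb : b (Sum.inl i) <;> simp [hb] at h ⊢
    · exact (eq_inv_of_mul_eq_one_right h.symm).symm
    · rw [← inv_neg]
      exact (eq_inv_of_mul_eq_one_right (show -x * y = 1 by linear_combination h)).symm

/-- Order of the normaliser of the torus. -/
theorem card_normalizer_torus [Fintype F] (hq : 4 ≤ Fintype.card F) (m : ℕ) :
    Nat.card ↥(Subgroup.normalizer (torus m F : Set (Matrix.symplecticGroup (Fin m) F))) =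
      2 ^ m * Nat.factorial m * (Fintype.card F - 1) ^ m := by
  classical
  have hN : ∀ g : Matrix.symplecticGroup (Fin m) F,
      g ∈ Subgroup.normalizer (torus m F : Set (Matrix.symplecticGroup (Fin m) F)) ↔
        ∀ t ∈ torus m F, g⁻¹ * t * g ∈ torus m F := by
    intro g
    rw [← Subgroup.inv_mem_iff (Subgroup.normalizer _)]
    refine ⟨fun h t ht => by simpa using (Subgroup.mem_normalizer_iff.mp h t).mp ht, fun h => ?_⟩
    refine Subgroup.mem_normalizer_fintype fun t ht => ?_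
    simpa using h t ht
  let f : Equiv.Perm (Fin m) × (Fin m → Bool) × (Fin m → Fˣ) →
      Subgroup.normalizer (torus m F : Set (Matrix.symplecticGroup (Fin m) F)) :=
    fun x => ⟨⟨monoMat x.1 x.2.1 x.2.2, monoMat_mem _ _ _⟩,
      (hN _).mpr fun t ht => conj_mem_torus (monoMat_column _ _ _) ht⟩
  have hf : Function.Bijective f := by
    refine ⟨fun x y h => ?_, fun g => ?_⟩
    · obtain ⟨h1, h2, h3⟩ := monoMat_injective (congrArg (fun z => z.1.1) h)
      exact Prod.ext h1 (Prod.ext h2 h3)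
    · obtain ⟨π, s, a, h⟩ := exists_monoMat fun c => column_of_normalizer hq ((hN _).mp g.2) c
      exact ⟨(π, s, a), Subtype.ext (Subtype.ext h)⟩
  rw [← Nat.card_congr (Equiv.ofBijective f hf), Nat.card_prod, Nat.card_prod, Nat.card_perm,
    Nat.card_fun, Nat.card_fun, Nat.card_fin, Nat.card_eq_fintype_card (α := Bool), Fintype.card_bool,
    Nat.card_units, Nat.card_eq_fintype_card]
  ring

end Cfsg.Agent.H2
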